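import Mathlib

/-!
# Isometries of order divisible by `p` in dimension three
-/

set_option autoImplicit false

namespace Cfsg.Agent.Lib.SpecBC

open Module

variable {F W : Type*} [Field F] [AddCommGroup W] [Module F W] [FiniteDimensional F W]

/-- The coercion to endomorphisms, as a monoid hom. -/
noncomputable abbrev toEnd : (W ≃ₗ[F] W) →* Module.End F W :=
  LinearEquiv.automorphismGroup.toLinearMapMonoidHom

theorem toEnd_apply (g : W ≃ₗ[F] W) (x : W) : toEnd g x = g x := rfl

theorem toEnd_injective : Function.Injective (toEnd : (W ≃ₗ[F] W) →* Module.End F W) := by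
  intro a b h
  ext x
  exact LinearMap.congr_fun h x

section charp

variable {p : ℕ} [hp : Fact p.Prime] [CharP F p]

theorem charP_End [Nontrivial W] : CharP (Module.End F W) p :=
  charP_of_injective_algebraMap (algebraMap F (Module.End F W)).injective p

theorem det_one_add_nil (n : Module.End F W) (hn : n ^ p = 0) : LinearMap.det (1 + n) = (1 : F) := by
  classical
  by_cases hW : Nontrivial W
  · haveI := charP_End (F := F) (W := W) (p := p)
    have h1 : (1 + n) ^ p = 1 := by
      rw [add_pow_char_of_commute p (Commute.one_left n), one_pow, hn, add_zero]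
    have h2 : LinearMap.det (1 + n) ^ p = (1 : F) := by
      rw [← map_pow, h1, map_one]
    have h3 : (LinearMap.det (1 + n) - 1) ^ p = (0 : F) := by
      rw [sub_pow_char, h2, one_pow, sub_self]
    have h4 := pow_eq_zero_iff (hp.out.ne_zero) |>.1 h3
    exact sub_eq_zero.1 h4
  · rw [not_nontrivial_iff_subsingleton] at hW
    rw [LinearMap.det_eq_one_of_subsingleton]

theorem w3 (hp3 : 3 ≤ p) (hW : finrank F W = 3) (β : W →ₗ[F] W →ₗ[F] F)
    (hsymm : ∀ x y, β x y = β y x) (hnd : ∀ x, (∀ y, β x y = 0) → x = 0)
    (w : W ≃ₗ[F] W) (hw : ∀ x y, β (w x) (w y) = β x y)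
    (hdet : LinearMap.det (w : W →ₗ[F] W) = 1) (hpos : 0 < orderOf w) (hdvd : p ∣ orderOf w) :
    w ^ p = 1 ∧ LinearMap.det ((w : W →ₗ[F] W) + LinearMap.id) = 8 := by
  classical
  have h20 : (2 : F) ≠ 0 := by
    intro h
    have : (p : ℕ) ∣ 2 := by
      have := (CharP.cast_eq_zero_iff F p 2).1 (by exact_mod_cast h)
      exact this
    have := Nat.le_of_dvd (by norm_num) this
    omega
  haveI : Nontrivial W := by
    apply Module.nontrivial_of_finrank_pos (R := F)
    omega
  haveI := charP_End (F := F) (W := W) (p := p)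
  set y : W ≃ₗ[F] W := w ^ (orderOf w / p) with hy
  have hyord : orderOf y = p := orderOf_pow_orderOf_div hpos.ne' hdvd
  have hiso : ∀ k : ℕ, ∀ x z, β ((w ^ k) x) ((w ^ k) z) = β x z := by
    intro k
    induction k with
    | zero => intro x z; simp
    | succ k ih =>
      intro x z
      rw [pow_succ]
      show β ((w ^ k) (w x)) ((w ^ k) (w z)) = β x z
      rw [ih, hw]
  have hyiso : ∀ x z, β (y x) (y z) = β x z := hiso _
  set Y : Module.End F W := toEnd y with hYdef
  set N : Module.End F W := Y - 1 with hNdef
  have hYapp : ∀ x, Y x = y x := fun x => rfl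
  have hNapp : ∀ x, N x = y x - x := fun x => rfl
  have hYp : Y ^ p = 1 := by
    rw [hYdef, ← map_pow, ← hyord, pow_orderOf_eq_one, map_one]
  have hNp : N ^ p = 0 := by
    rw [hNdef, sub_pow_char_of_commute p (Commute.one_right Y), hYp, one_pow, sub_self]
  have hN0 : N ≠ 0 := by
    intro h
    have h1 : Y = 1 := sub_eq_zero.1 h
    have h2 : y = 1 := toEnd_injective (by rw [← hYdef, h1, map_one])
    rw [h2, orderOf_one] at hyord
    exact hp.out.ne_one hyord.symm
  have hN3 : N ^ 3 = 0 := by
    have h1 := Module.End.ker_pow_le_ker_pow_finrank N p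
    rw [hNp, LinearMap.ker_zero, hW, top_le_iff, LinearMap.ker_eq_top] at h1
    exact h1
  have hN3app : ∀ x, N (N (N x)) = 0 := fun x => LinearMap.congr_fun hN3 x
  have hperp : ∀ f z, N f = 0 → β (N z) f = 0 := by
    intro f z hf
    have h1 : y f = f := by
      have := hNapp f
      rw [hf] at this
      exact (sub_eq_zero.1 this.symm)
    rw [hNapp]
    simp only [map_sub, LinearMap.sub_apply]
    have := hyiso z f
    rw [h1] at this
    rw [this, sub_self]
  -- `N ^ 2 ≠ 0`
  have hN2 : ∃ b, N (N b) ≠ 0 := by
    by_contra hcon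
    push_neg at hcon
    have hbN : ∀ z z', β (N z) (N z') = 0 := fun z z' => hperp _ _ (hcon z')
    have halt : ∀ z, β (N z) z = 0 := by
      intro z
      have h1 := hyiso z z
      have h2 : y z = z + N z := by rw [hNapp]; abel
      rw [h2] at h1
      simp only [map_add, LinearMap.add_apply] at h1
      rw [hbN z z, hsymm z (N z)] at h1
      have h3 : (2 : F) * β (N z) z = 0 := by linear_combination h1
      exact (mul_eq_zero.1 h3).resolve_left h20
    obtain ⟨z₀, hz₀⟩ : ∃ z₀, N z₀ ≠ 0 := by
      by_contra h
      push_neg at h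
      exact hN0 (LinearMap.ext h)
    set a := N z₀ with ha
    have hrk : finrank F (LinearMap.range N) ≤ 1 := by
      have h1 := LinearMap.finrank_range_add_finrank_ker N
      have h2 : LinearMap.range N ≤ LinearMap.ker N := by
        rintro _ ⟨z, rfl⟩
        exact hcon z
      have h3 := Submodule.finrank_mono h2
      omega
    have hspan : ∀ z, ∃ c : F, N z = c • a := by
      obtain ⟨v, hv⟩ := finrank_le_one_iff.1 hrk
      intro z
      obtain ⟨c₁, hc₁⟩ := hv ⟨a, z₀, rfl⟩
      obtain ⟨c₂, hc₂⟩ := hv ⟨N z, z, rfl⟩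
      have hc₁' : c₁ • (v : W) = a := congrArg Subtype.val hc₁
      have hc₂' : c₂ • (v : W) = N z := congrArg Subtype.val hc₂
      have hc₁0 : c₁ ≠ 0 := by
        rintro rfl
        rw [zero_smul] at hc₁'
        exact hz₀ hc₁'.symm
      refine ⟨c₂ / c₁, ?_⟩
      rw [← hc₂', ← hc₁', smul_smul, div_mul_cancel₀ _ hc₁0]
    have hA : ∀ z, N z ≠ 0 → β a z = 0 := by
      intro z hz
      obtain ⟨c, hc⟩ := hspan z
      have h1 := halt z
      rw [hc] at h1
      simp only [map_smul, LinearMap.smul_apply, smul_eq_mul] at h1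
      have hc0 : c ≠ 0 := by
        rintro rfl
        rw [zero_smul] at hc
        exact hz hc
      exact (mul_eq_zero.1 h1).resolve_left hc0
    have hB : ∀ z, β a z = 0 := by
      intro z
      by_cases hz : N z = 0
      · have h1 : N (z + z₀) ≠ 0 := by
          rw [map_add, hz, zero_add]
          exact hz₀
        have h2 := hA _ h1
        rw [map_add, hA z₀ hz₀, add_zero] at h2
        exact h2
      · exact hA z hz
    exact hz₀ (hnd a hB)
  obtain ⟨b, hb⟩ := hN2
  set a := N (N b) with ha
  have hNa : N a = 0 := hN3app b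
  -- the basis
  let e : Fin 3 → W := ![b, N b, a]
  have hind : LinearIndependent F e := by
    rw [Fintype.linearIndependent_iff]
    intro g hg i
    rw [Fin.sum_univ_three] at hg
    simp only [e, Matrix.cons_val_zero, Matrix.cons_val_one, Matrix.cons_val] at hg
    have h0 : g 0 = 0 := by
      have h1 := congrArg (fun x => N (N x)) hg
      simp only [map_add, map_smul, map_zero, hNa, smul_zero, add_zero, hN3app b] at h1
      have h2 : g 0 • a = 0 := h1
      exact (smul_eq_zero.1 h2).resolve_right hb
    have h1 : g 1 = 0 := by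
      have h1 := congrArg (fun x => N x) hg
      simp only [map_add, map_smul, map_zero, hNa, smul_zero, add_zero, h0, zero_smul, zero_add] at h1
      have h2 : g 1 • a = 0 := h1
      exact (smul_eq_zero.1 h2).resolve_right hb
    have h2 : g 2 = 0 := by
      rw [h0, h1, zero_smul, zero_smul, zero_add, zero_add] at hg
      exact (smul_eq_zero.1 hg).resolve_right hb
    fin_cases i
    · exact h0
    · exact h1
    · exact h2
  have hspan : Submodule.span F (Set.range e) = ⊤ :=
    hind.span_eq_top_of_card_eq_finrank' (by rw [hW]; rfl)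
  obtain ⟨c, hc⟩ := (Submodule.mem_span_range_iff_exists_fun F).1 (hspan ▸ Submodule.mem_top : w b ∈ _)
  rw [Fin.sum_univ_three] at hc
  simp only [e, Matrix.cons_val_zero, Matrix.cons_val_one, Matrix.cons_val] at hc
  set α := c 0 with hα
  set γ := c 1 with hγ
  set δ := c 2 with hδ
  set W' : Module.End F W := toEnd w with hW'
  have hW'app : ∀ x, W' x = w x := fun x => rfl
  have hcommY : Commute W' Y := by
    rw [hW', hYdef, hy, map_pow]
    exact (Commute.refl _).pow_right _
  have hcomm : Commute W' N := hcommY.sub_right (Commute.one_right _)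
  have hcommN : ∀ x, W' (N x) = N (W' x) := fun x => LinearMap.congr_fun hcomm.eq x
  have hW'eq : W' = α • 1 + γ • N + δ • (N * N) := by
    have hWb : W' b = α • b + γ • N b + δ • a := by rw [hW'app, ← hc]
    have hWNb : W' (N b) = α • N b + γ • a := by
      rw [hcommN, hWb]
      simp only [map_add, map_smul, hNa, smul_zero, add_zero]
      rfl
    have hWa : W' a = α • a := by
      rw [ha, hcommN, hWNb]
      simp only [map_add, map_smul, hN3app b]
      have : N a = 0 := hNa
      rw [← ha, this, smul_zero, add_zero]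
    apply LinearMap.ext_on_range hspan
    intro i
    fin_cases i
    · show W' b = (α • (1 : Module.End F W) + γ • N + δ • (N * N)) b
      rw [hWb]
      rfl
    · show W' (N b) = (α • (1 : Module.End F W) + γ • N + δ • (N * N)) (N b)
      rw [hWNb]
      show _ = α • N b + γ • N (N b) + δ • N (N (N b))
      rw [hN3app b, smul_zero, add_zero]
    · show W' a = (α • (1 : Module.End F W) + γ • N + δ • (N * N)) a
      rw [hWa]
      show _ = α • a + γ • N a + δ • N (N a)
      rw [hNa, map_zero, smul_zero, smul_zero, add_zero, add_zero]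
  set M : Module.End F W := γ • N + δ • (N * N) with hM
  have hW'M : W' = α • 1 + M := by rw [hW'eq, hM, add_assoc]
  have hM3 : M * (M * M) = 0 := by
    have hc3 : N * (N * N) = 0 := by
      rw [← pow_three]; exact hN3
    have : M * (M * M) = (γ ^ 3) • (N * (N * N)) + (3 * γ ^ 2 * δ) • ((N * (N * N)) * N)
        + (3 * γ * δ ^ 2) • ((N * (N * N)) * (N * N)) + (δ ^ 3) • ((N * (N * N)) * (N * (N * N))) := by
      rw [hM]
      simp only [mul_add, add_mul, smul_mul_assoc, mul_smul_comm, smul_add, smul_smul, mul_assoc]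
      have e1 : ∀ (A : Module.End F W), True := fun _ => trivial
      ext x
      simp only [LinearMap.add_apply, LinearMap.smul_apply, Module.End.mul_apply, map_add, map_smul,
        smul_add, smul_smul]
      module
    rw [this, hc3]
    simp
  have hMp : ∀ (t : F), (t • M) ^ p = 0 := by
    intro t
    obtain ⟨k, hk⟩ : ∃ k, p = 3 + k := ⟨p - 3, by omega⟩
    have h1 : M ^ p = 0 := by
      rw [hk, pow_add, show M ^ 3 = M * (M * M) by rw [pow_three], hM3, zero_mul]
    rw [smul_pow, h1, smul_zero]
  have hα0 : α ≠ 0 := by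
    intro h0
    have h1 : W' = M := by rw [hW'M, h0, zero_smul, zero_add]
    have h2 : W' ^ p = 0 := by
      have := hMp 1
      rwa [one_smul, ← h1] at this
    have h3 : LinearMap.det W' = 1 := hdet
    have h4 : LinearMap.det (W' ^ p) = 1 := by rw [map_pow, h3, one_pow]
    rw [h2, LinearMap.det_zero''] at h4
    exact zero_ne_one h4
  have hdetW : LinearMap.det W' = α ^ 3 := by
    have h1 : W' = α • (1 + α⁻¹ • M) := by
      rw [hW'M, smul_add, smul_smul, mul_inv_cancel₀ hα0, one_smul]
    rw [h1, LinearMap.det_smul, hW, det_one_add_nil (p := p) _ (hMp _), mul_one]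
  have hα3 : α ^ 3 = 1 := by rw [← hdetW]; exact hdet
  -- `α ^ 2 = 1`
  have hWb : w b = α • b + γ • N b + δ • a := hc.symm
  have hWa : w a = α • a := by
    have h1 : W' a = (α • (1 : Module.End F W) + M) a := by rw [← hW'M]
    have h2 : M a = 0 := by
      show γ • N a + δ • N (N a) = 0
      rw [hNa, map_zero, smul_zero, smul_zero, add_zero]
    rw [hW'app] at h1
    rw [h1]
    show α • a + M a = _
    rw [h2, add_zero]
  have haNb : β a (N b) = 0 := by
    rw [hsymm]
    exact hperp a b hNa
  have haa : β a a = 0 := hperp a (N b) hNa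
  have hab : β a b ≠ 0 := by
    intro h0
    have ha0 : a = 0 := by
      apply hnd
      intro z
      have hz : z ∈ Submodule.span F (Set.range e) := hspan ▸ Submodule.mem_top
      obtain ⟨g, hg⟩ := (Submodule.mem_span_range_iff_exists_fun F).1 hz
      rw [← hg, Fin.sum_univ_three]
      simp only [e, Matrix.cons_val_zero, Matrix.cons_val_one, Matrix.cons_val, map_add, map_smul,
        smul_eq_mul, h0, haNb, haa, mul_zero, add_zero]
    exact hb ha0
  have hα2 : α ^ 2 = 1 := by
    have h1 := hw a b
    rw [hWa, hWb] at h1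
    simp only [map_add, map_smul, LinearMap.smul_apply, smul_eq_mul, haNb, haa, mul_zero, add_zero] at h1
    have h2 : (α ^ 2 - 1) * β a b = 0 := by linear_combination h1
    have h3 := (mul_eq_zero.1 h2).resolve_right hab
    exact sub_eq_zero.1 h3
  have hα1 : α = 1 := by
    have : α = α ^ 3 * (α ^ 2)⁻¹ := by
      rw [hα2, inv_one, mul_one]
      have h5 : α ^ 3 = α * α ^ 2 := by ring
      rw [h5, hα2, mul_one]
    rw [this, hα3, hα2]
    simp
  have hW'1 : W' = 1 + M := by rw [hW'M, hα1, one_smul]
  constructor
  · apply toEnd_injective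
    rw [map_pow, map_one, ← hW', hW'1, add_pow_char_of_commute p (Commute.one_left M), one_pow]
    have := hMp 1
    rw [one_smul] at this
    rw [this, add_zero]
  · have h1 : (w : W →ₗ[F] W) + LinearMap.id = (2 : F) • (1 + (2 : F)⁻¹ • M) := by
      have h2 : (w : W →ₗ[F] W) = W' := rfl
      rw [h2, hW'1, smul_add, smul_smul, mul_inv_cancel₀ h20, one_smul, two_smul]
      ext x
      simp only [LinearMap.add_apply, LinearMap.id_apply, Module.End.one_apply]
      abel
    rw [h1, LinearMap.det_smul, hW, det_one_add_nil (p := p) _ (hMp _), mul_one]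
    norm_num

end charp

end Cfsg.Agent.Lib.SpecBC
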