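import Mathlib
import Cfsg.Agent.Lib.SpecBC.W3

/-!
# An irreducible cyclic group of isometries in dimension `2 m`

If `T` is an isometry of prime order `r` acting irreducibly on a space of dimension `2m`, with
`r` a primitive prime divisor of `q ^ (2 m) - 1`, then the centraliser of `T` in the isometry group
is cyclic of order dividing `q ^ m + 1`, and a generator `C` has `det (1 + C)` a non-square.
-/

set_option autoImplicit false

namespace Cfsg.Agent.Lib.SpecBC

open Module Polynomial

variable {F U : Type*} [Field F] [Fintype F] [AddCommGroup U] [Module F U] [FiniteDimensional F U]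

theorem commute_aeval {A B : Module.End F U} (h : Commute A B) (P : F[X]) : Commute A (aeval B P) := by
  induction P using Polynomial.induction_on' with
  | add p q hp hq =>
    rw [map_add]
    exact hp.add_right hq
  | monomial n a =>
    rw [aeval_monomial]
    exact (Algebra.commute_algebraMap_right a A).mul_right (h.pow_right n)

section abstract

variable {K : Type*} [Field K] [Fintype K] [Algebra F K]

/-- Frobenius on a polynomial value. -/
theorem aeval_pow_card_pow (θ : K) (P : F[X]) (m : ℕ) :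
    (aeval θ P) ^ (Fintype.card F) ^ m = aeval (θ ^ (Fintype.card F) ^ m) P := by
  induction m with
  | zero => simp
  | succ m ih =>
    rw [pow_succ, pow_mul, ih, ← map_pow, ← FiniteField.expand_card, expand_aeval, ← pow_mul]

theorem abstract_field_part (p : ℕ) [hp : Fact p.Prime] [CharP F p] {q m r : ℕ} (hq : Fintype.card F = q) (hodd : Odd q) (hm : 0 < m)
    (hU : finrank F U = 2 * m) (β : U →ₗ[F] U →ₗ[F] F) (hsymm : ∀ x y, β x y = β y x)
    (hnd : ∀ x, (∀ y, β x y = 0) → x = 0)
    (T : U ≃ₗ[F] U) (hT : ∀ x y, β (T x) (T y) = β x y) (hTr : T ^ r = 1) (hT1 : T ≠ 1)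
    (hr : r.Prime) (hrQ : r ∣ q ^ m + 1) (hrord : ∀ k, 0 < k → r ∣ q ^ k - 1 → 2 * m ∣ k)
    (C : U ≃ₗ[F] U) (hC : ∀ x y, β (C x) (C y) = β x y) (hCT : C * T = T * C)
    (φ : K →ₐ[F] Module.End F U) (θ : K) (hgen : ∀ x : K, ∃ P : F[X], aeval θ P = x)
    (hθ : φ θ = toEnd T) :
    C ^ (q ^ m + 1) = 1 ∧ LinearMap.det (C : U →ₗ[F] U) = 1 ∧
      (orderOf C = q ^ m + 1 → ¬ IsSquare (LinearMap.det ((C : U →ₗ[F] U) + LinearMap.id)) ∧
        LinearMap.det ((C : U →ₗ[F] U) + LinearMap.id) ≠ 0) := by
  classical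
  haveI : Nontrivial U := by
    apply Module.nontrivial_of_finrank_pos (R := F)
    omega
  haveI : Fact r.Prime := ⟨hr⟩
  have hq1 : 1 < q := by rw [← hq]; exact Fintype.one_lt_card
  have hφinj : Function.Injective φ := φ.toRingHom.injective
  set Q := q ^ m with hQ
  have hQ1 : 1 < Q := Nat.one_lt_pow hm.ne' hq1
  set T' : Module.End F U := toEnd T with hT'
  set C' : Module.End F U := toEnd C with hC'
  -- `θ` has order `r`
  have hθr : θ ^ r = 1 := by
    apply hφinj
    rw [map_pow, hθ, hT', ← map_pow, hTr, map_one, map_one]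
  have hθ1 : θ ≠ 1 := by
    intro h
    apply hT1
    apply toEnd_injective
    rw [map_one, ← hT', ← hθ, h, map_one]
  have hθ0 : θ ≠ 0 := by
    rintro rfl
    rw [zero_pow hr.ne_zero] at hθr
    exact zero_ne_one hθr
  have hθord : orderOf θ = r := orderOf_eq_prime hθr hθ1
  set d := finrank F K with hd
  have hdpos : 0 < d := Module.finrank_pos
  have hcardK : Fintype.card K = q ^ d := by
    rw [← hq, hd]
    exact Module.card_eq_pow_finrank
  have hrd : 2 * m ∣ d := by
    apply hrord d hdpos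
    rw [← hcardK, ← hθord]
    apply orderOf_dvd_of_pow_eq_one
    exact FiniteField.pow_card_sub_one_eq_one θ hθ0
  -- vector `v₀`
  obtain ⟨v₀, hv₀⟩ := exists_ne (0 : U)
  have hunit : ∀ x : K, x ≠ 0 → ∀ v, φ x v = 0 → v = 0 := by
    intro x hx v hv
    have h1 : φ x⁻¹ * φ x = 1 := by rw [← map_mul, inv_mul_cancel₀ hx, map_one]
    have h2 := LinearMap.congr_fun h1 v
    simp only [Module.End.mul_apply, Module.End.one_apply, hv, map_zero] at h2
    exact h2.symm
  let ι : K →ₗ[F] U :=
    { toFun := fun x => φ x v₀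
      map_add' := fun x y => by simp
      map_smul' := fun a x => by simp }
  have hιapp : ∀ x, ι x = φ x v₀ := fun _ => rfl
  have hιinj : Function.Injective ι := by
    rw [injective_iff_map_eq_zero]
    intro x hx
    by_contra hx0
    exact hv₀ (hunit x hx0 v₀ hx)
  have hdle : d ≤ 2 * m := by
    rw [← hU]
    exact LinearMap.finrank_le_finrank_of_injective hιinj
  have hd2 : d = 2 * m := by
    have := Nat.le_of_dvd hdpos hrd
    omega
  have hιbij : Function.Bijective ι :=
    (LinearMap.injective_iff_surjective_of_finrank_eq_finrank (by rw [← hd, hd2, hU])).1 hιinj |>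
      fun h => ⟨hιinj, h⟩
  let e : K ≃ₗ[F] U := LinearEquiv.ofBijective ι hιbij
  have heapp : ∀ x, e x = φ x v₀ := fun _ => rfl
  -- commutation
  have hcomm0 : Commute C' T' := by
    show C' * T' = T' * C'
    rw [hC', hT', ← map_mul, ← map_mul, hCT]
  have hcommφ : ∀ x, Commute C' (φ x) := by
    intro x
    obtain ⟨P, rfl⟩ := hgen x
    rw [← aeval_algHom_apply, hθ]
    exact commute_aeval hcomm0 P
  -- `C` is `φ c`
  set c : K := e.symm (C v₀) with hc
  have hcv : φ c v₀ = C v₀ := by
    rw [← heapp, hc, LinearEquiv.apply_symm_apply]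
  have hCc : C' = φ c := by
    ext v
    obtain ⟨x, rfl⟩ := hιbij.2 v
    rw [hιapp]
    have h1 := LinearMap.congr_fun (hcommφ x).eq v₀
    have h2 : φ c * φ x = φ x * φ c := by rw [← map_mul, ← map_mul, mul_comm]
    have h3 := LinearMap.congr_fun h2 v₀
    simp only [Module.End.mul_apply] at h1 h3
    rw [h1, h3]
    have : C' v₀ = C v₀ := rfl
    rw [this, hcv]
  -- the adjoint
  have hT'Q : T' ^ Q = φ (θ ^ Q) := by rw [map_pow, hθ]
  have hTinv : ∀ x, T ((T' ^ Q) x) = x := by
    intro x
    have h1 : T ^ (Q + 1) = 1 := by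
      obtain ⟨k, hk⟩ := hrQ
      rw [hk, pow_mul, hTr, one_pow]
    have h2 : (T * T ^ Q) x = x := by
      rw [← pow_succ', h1]
      rfl
    have h3 : (T' ^ Q) x = (T ^ Q) x := by
      rw [hT', ← map_pow]
      rfl
    rw [h3]
    exact h2
  have hadj1 : ∀ u v, β (T' u) v = β u ((T' ^ Q) v) := by
    intro u v
    have h1 := hT u ((T' ^ Q) v)
    rw [hTinv] at h1
    exact h1
  have hadjP : ∀ (P : F[X]) u v, β (aeval T' P u) v = β u (aeval (T' ^ Q) P v) := by
    intro P
    induction P using Polynomial.induction_on' with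
    | add p q hp hq =>
      intro u v
      simp only [map_add, LinearMap.add_apply, hp, hq]
    | monomial n a =>
      intro u v
      simp only [aeval_monomial]
      have hpow : ∀ n u v, β ((T' ^ n) u) v = β u (((T' ^ Q) ^ n) v) := by
        intro n
        induction n with
        | zero => intro u v; simp
        | succ n ih =>
          intro u v
          rw [pow_succ, Module.End.mul_apply, ih, hadj1, pow_succ', Module.End.mul_apply]
      simp only [Module.End.mul_apply, Module.algebraMap_end_apply, map_smul, LinearMap.smul_apply,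
        hpow]
  have hadj : ∀ (x : K) u v, β (φ x u) v = β u (φ (x ^ Q) v) := by
    intro x u v
    obtain ⟨P, rfl⟩ := hgen x
    have h1 : φ (aeval θ P) = aeval T' P := by rw [← aeval_algHom_apply, hθ]
    have h2 : φ ((aeval θ P) ^ Q) = aeval (T' ^ Q) P := by
      rw [hQ, ← hq, aeval_pow_card_pow, ← aeval_algHom_apply, map_pow, hθ, hq]
    rw [h1, h2, hadjP]
  -- norm one
  have hcQ : c ^ (Q + 1) = 1 := by
    apply hφinj
    rw [map_one]
    ext v
    have hz : ∀ y, β y (φ (c ^ (Q + 1)) v - v) = 0 := by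
      intro y
      rw [map_sub, sub_eq_zero]
      have h1 := hC y v
      have h2 : C y = φ c y := by rw [← hCc]; rfl
      have h3 : C v = φ c v := by rw [← hCc]; rfl
      rw [h2, h3, hadj] at h1
      rw [pow_succ, map_mul]
      exact h1
    have h4 := hnd _ (fun y => by rw [hsymm]; exact hz y)
    exact sub_eq_zero.1 h4
  have hc0 : c ≠ 0 := by
    intro h0
    rw [h0, zero_pow (by omega)] at hcQ
    exact zero_ne_one hcQ
  -- `C ^ (Q + 1) = 1`
  have h1 : C ^ (Q + 1) = 1 := by
    apply toEnd_injective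
    rw [map_pow, map_one, ← hC', hCc, ← map_pow, hcQ, map_one]
  -- determinants
  have hdet : ∀ x : K, LinearMap.det (φ x) = Algebra.norm F x := by
    intro x
    rw [Algebra.norm_apply]
    have h2 : φ x = (e : K →ₗ[F] U) ∘ₗ (LinearMap.mulLeft F x) ∘ₗ (e.symm : U →ₗ[F] K) := by
      ext v
      obtain ⟨y, rfl⟩ := hιbij.2 v
      show φ x (ι y) = e (x * e.symm (ι y))
      have h3 : e.symm (ι y) = y := e.symm_apply_apply y
      rw [h3, heapp, map_mul, hιapp]
      rfl
    rw [h2, LinearMap.det_conj]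
    rfl
  have hcardF : Nat.card F = q := by rw [Nat.card_eq_fintype_card, hq]
  have hcardK' : Nat.card K = Q ^ 2 := by
    rw [Nat.card_eq_fintype_card, hcardK, hd2, hQ, ← pow_mul, mul_comm]
  have hQsq : Q ^ 2 - 1 = (Q + 1) * (Q - 1) := by
    obtain ⟨k, hk⟩ : ∃ k, Q = k + 1 := ⟨Q - 1, by omega⟩
    rw [hk]
    simp only [Nat.add_sub_cancel]
    have : (k + 1) ^ 2 - 1 = (k + 1 + 1) * k := by
      have : (k + 1) ^ 2 = (k + 1 + 1) * k + 1 := by ring
      omega
    exact this
  obtain ⟨w, hw⟩ : (q - 1) ∣ (Q - 1) := by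
    have := Nat.sub_dvd_pow_sub_pow q 1 m
    simpa using this
  have hq10 : 0 < q - 1 := by omega
  have hexp : (Nat.card K - 1) / (Nat.card F - 1) = (Q + 1) * w := by
    rw [hcardK', hcardF, hQsq, hw]
    have : (Q + 1) * ((q - 1) * w) = (q - 1) * ((Q + 1) * w) := by ring
    rw [this, Nat.mul_div_cancel_left _ hq10]
  have hnorm : ∀ x : K, algebraMap F K (Algebra.norm F x) = x ^ ((Q + 1) * w) := by
    intro x
    rw [FiniteField.algebraMap_norm_eq_pow, hexp]
  have hdetC : LinearMap.det (C : U →ₗ[F] U) = Algebra.norm F c := by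
    rw [← hdet, ← hCc]
    rfl
  have h2 : LinearMap.det (C : U →ₗ[F] U) = 1 := by
    rw [hdetC]
    apply (algebraMap F K).injective
    rw [hnorm, pow_mul, hcQ, one_pow, map_one]
  refine ⟨h1, h2, ?_⟩
  intro hord
  have hordc : orderOf c = Q + 1 := by
    rw [← hord, ← orderOf_injective (toEnd : (U ≃ₗ[F] U) →* Module.End F U) toEnd_injective C, ← hC', hCc]
    exact (orderOf_injective (φ : K →* Module.End F U) hφinj c).symm
  set y : K := 1 + c with hy
  have hdety : LinearMap.det ((C : U →ₗ[F] U) + LinearMap.id) = Algebra.norm F y := by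
    rw [← hdet]
    congr 1
    rw [hy, map_add, map_one, ← hCc, add_comm]
    rfl
  have hy0 : y ≠ 0 := by
    intro h0
    have h3 : c = -1 := by
      have := eq_neg_of_add_eq_zero_right h0
      exact this
    have h4 : c ^ 2 = 1 := by rw [h3]; norm_num
    have h5 := orderOf_dvd_of_pow_eq_one h4
    rw [hordc] at h5
    have := Nat.le_of_dvd (by norm_num) h5
    omega
  rw [hdety]
  have hNy : Algebra.norm F y ≠ 0 := by
    intro h0
    have h3 := hnorm y
    rw [h0, map_zero] at h3
    exact pow_ne_zero _ hy0 h3.symm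
  refine ⟨?_, hNy⟩
  rintro ⟨s, hs⟩
  have hs0 : s ≠ 0 := by
    rintro rfl
    apply hNy
    rw [hs, mul_zero]
  obtain ⟨k, hk⟩ := hodd
  have hqk : q - 1 = 2 * k := by omega
  -- the left side
  have hL : y ^ ((Q + 1) * w * k) = 1 := by
    rw [pow_mul, ← hnorm, hs, map_mul, ← pow_two, ← pow_mul, ← map_pow, ← hqk, ← hq,
      FiniteField.pow_card_sub_one_eq_one s hs0, map_one]
  -- the right side
  haveI : CharP K p := charP_of_injective_algebraMap (algebraMap F K).injective p
  obtain ⟨f, -, hqf⟩ := FiniteField.card F p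
  have hQp : Q = p ^ ((f : ℕ) * m) := by
    rw [hQ, ← hq, hqf, pow_mul]
  have hcinvQ : c ^ Q = c⁻¹ := by
    have h3 : c ^ Q * c = 1 := by rw [← pow_succ]; exact hcQ
    exact eq_inv_of_mul_eq_one_left h3
  have hyQ : y ^ Q = c⁻¹ * y := by
    rw [hy, hQp, add_pow_char_pow, one_pow, ← hQp, hcinvQ, mul_add, mul_one, inv_mul_cancel₀ hc0]
    ring
  have hy1 : y ^ (Q - 1) = c⁻¹ := by
    have h3 : y ^ (Q - 1) * y = c⁻¹ * y := by
      rw [← pow_succ, Nat.sub_add_cancel (by omega), hyQ]
    exact mul_right_cancel₀ hy0 h3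
  have hQodd : Odd Q := Odd.pow ⟨k, hk⟩
  obtain ⟨t, ht⟩ := hQodd
  have hcompute : (Q + 1) * w * k = (t + 1) * (Q - 1) := by
    have h3 : Q - 1 = 2 * k * w := by rw [hw, hqk]
    have h4 : Q + 1 = 2 * (t + 1) := by omega
    rw [h3, h4]
    ring
  rw [hcompute, mul_comm, pow_mul, hy1, inv_pow] at hL
  have h5 : c ^ (t + 1) = 1 := by
    have := inv_eq_one.1 hL
    exact this
  have h6 := orderOf_dvd_of_pow_eq_one h5
  rw [hordc] at h6
  have := Nat.le_of_dvd (by omega) h6
  omega

end abstract

/-- The concrete statement, with the field `F[T]` built as `AdjoinRoot (minpoly F T)`. -/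
theorem field_part (p : ℕ) [hp : Fact p.Prime] [CharP F p] {q m r : ℕ} (hq : Fintype.card F = q)
    (hodd : Odd q) (hm : 0 < m)
    (hU : finrank F U = 2 * m) (β : U →ₗ[F] U →ₗ[F] F) (hsymm : ∀ x y, β x y = β y x)
    (hnd : ∀ x, (∀ y, β x y = 0) → x = 0)
    (T : U ≃ₗ[F] U) (hT : ∀ x y, β (T x) (T y) = β x y) (hTr : T ^ r = 1) (hT1 : T ≠ 1)
    (hr : r.Prime) (hrQ : r ∣ q ^ m + 1) (hrord : ∀ k, 0 < k → r ∣ q ^ k - 1 → 2 * m ∣ k)
    (hinv : ∀ X : Submodule F U, (∀ x ∈ X, T x ∈ X) → X = ⊥ ∨ X = ⊤)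
    (C : U ≃ₗ[F] U) (hC : ∀ x y, β (C x) (C y) = β x y) (hCT : C * T = T * C) :
    C ^ (q ^ m + 1) = 1 ∧ LinearMap.det (C : U →ₗ[F] U) = 1 ∧
      (orderOf C = q ^ m + 1 → ¬ IsSquare (LinearMap.det ((C : U →ₗ[F] U) + LinearMap.id)) ∧
        LinearMap.det ((C : U →ₗ[F] U) + LinearMap.id) ≠ 0) := by
  classical
  haveI : Nontrivial U := by
    apply Module.nontrivial_of_finrank_pos (R := F)
    omega
  set T' : Module.End F U := toEnd T with hT'
  have hint : IsIntegral F T' := IsIntegral.of_finite F T'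
  set ρ := minpoly F T' with hρ
  have hρ0 : ρ ≠ 0 := minpoly.ne_zero hint
  have hker : ∀ P : F[X], aeval T' P ≠ 0 → Function.Injective (aeval T' P) := by
    intro P hP
    rw [← LinearMap.ker_eq_bot]
    have hcomm : ∀ x, T' (aeval T' P x) = aeval T' P (T' x) := by
      intro x
      exact LinearMap.congr_fun (commute_aeval (Commute.refl T') P).eq x
    rcases hinv (LinearMap.ker (aeval T' P)) (by
      intro x hx
      rw [LinearMap.mem_ker] at hx ⊢
      have h1 := hcomm x
      rw [hx, map_zero] at h1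
      exact h1.symm) with h | h
    · exact h
    · exfalso
      apply hP
      exact LinearMap.ker_eq_top.1 h
  have hirr : Irreducible ρ := by
    have hdvd : ∀ (a b : F[X]), ρ = a * b → aeval T' a = 0 → IsUnit b := by
      intro a b hab h0
      obtain ⟨c, hc⟩ := minpoly.dvd F T' h0
      have h1 : ρ * (c * b) = ρ * 1 := by
        rw [mul_one, ← mul_assoc, ← hc]
        exact hab.symm
      have h2 := mul_left_cancel₀ hρ0 h1
      exact IsUnit.of_mul_eq_one _ (by rw [mul_comm]; exact h2)
    refine ⟨minpoly.not_isUnit F T', ?_⟩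
    intro a b hab
    by_cases ha : aeval T' a = 0
    · right
      exact hdvd a b hab ha
    · left
      have hb : aeval T' b = 0 := by
        have h0 : aeval T' a * aeval T' b = 0 := by
          rw [← map_mul, ← hab]
          exact minpoly.aeval F T'
        ext x
        have h1 := LinearMap.congr_fun h0 x
        apply hker a ha
        simpa using h1
      exact hdvd b a (by rw [hab, mul_comm]) hb
  haveI : Fact (Irreducible ρ) := ⟨hirr⟩
  let K := AdjoinRoot ρ
  haveI : Module.Finite F K := (AdjoinRoot.powerBasis hρ0).finite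
  haveI : Finite K := Module.finite_of_finite F
  letI : Fintype K := Fintype.ofFinite K
  let φ : K →ₐ[F] Module.End F U := Ideal.Quotient.liftₐ (Ideal.span {ρ}) (aeval T') (by
    intro a ha
    obtain ⟨c, rfl⟩ := Ideal.mem_span_singleton.1 ha
    rw [map_mul, hρ, minpoly.aeval, zero_mul])
  have hφ : ∀ P, φ (AdjoinRoot.mk ρ P) = aeval T' P := fun P => rfl
  refine abstract_field_part (K := K) p hq hodd hm hU β hsymm hnd T hT hTr hT1 hr hrQ hrord C hC hCT φ
    (AdjoinRoot.root ρ) ?_ ?_
  · intro x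
    obtain ⟨P, rfl⟩ := AdjoinRoot.mk_surjective x
    exact ⟨P, AdjoinRoot.aeval_eq P⟩
  · rw [← AdjoinRoot.mk_X, hφ, aeval_X]

end Cfsg.Agent.Lib.SpecBC
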