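import Mathlib
import Cfsg.Agent.Lib.SpecBC.Wall
import Cfsg.Agent.Lib.SpecBC.FieldPart
import Cfsg.Agent.Lib.Zsig

/-!
# No element of order `p (q ^ m + 1)` in `Ω_{2m+3}(q)`
-/

set_option autoImplicit false

namespace Cfsg.Agent.Lib.SpecBC

open Module Cfsg.Agent.Lib.OrthGroup Cfsg.Agent.Lib.OrthOmega

section res

variable {F V : Type*} [Field F] [AddCommGroup V] [Module F V]

/-- Restriction of a linear automorphism to a subspace invariant under it and its inverse. -/
noncomputable def res (h : V ≃ₗ[F] V) (X : Submodule F V) (h1 : ∀ x ∈ X, h x ∈ X)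
    (h2 : ∀ x ∈ X, h⁻¹ x ∈ X) : X ≃ₗ[F] X :=
  LinearEquiv.ofLinear ((h : V →ₗ[F] V).restrict h1) (((h⁻¹ : V ≃ₗ[F] V) : V →ₗ[F] V).restrict h2)
    (by
      ext x
      show h (h⁻¹ (x : V)) = x
      exact h.apply_symm_apply _)
    (by
      ext x
      show h⁻¹ (h (x : V)) = x
      exact h.symm_apply_apply _)

theorem res_apply (h : V ≃ₗ[F] V) (X : Submodule F V) (h1 : ∀ x ∈ X, h x ∈ X)
    (h2 : ∀ x ∈ X, h⁻¹ x ∈ X) (x : X) : ((res h X h1 h2 x : X) : V) = h x := rfl

theorem res_pow (h : V ≃ₗ[F] V) (X : Submodule F V) (h1 : ∀ x ∈ X, h x ∈ X)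
    (h2 : ∀ x ∈ X, h⁻¹ x ∈ X) (k : ℕ) (x : X) : ((((res h X h1 h2) ^ k) x : X) : V) = (h ^ k) x := by
  induction k generalizing x with
  | zero => simp
  | succ k ih =>
    rw [pow_succ, pow_succ]
    show ((((res h X h1 h2) ^ k) (res h X h1 h2 x) : X) : V) = (h ^ k) (h x)
    rw [ih, res_apply]

theorem det_of_isCompl [FiniteDimensional F V] {X Y : Submodule F V} (hc : IsCompl X Y)
    (f : V →ₗ[F] V) (hX : ∀ x ∈ X, f x ∈ X) (hY : ∀ y ∈ Y, f y ∈ Y) :
    LinearMap.det f = LinearMap.det (f.restrict hX) * LinearMap.det (f.restrict hY) := by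
  classical
  let E := Submodule.prodEquivOfIsCompl X Y hc
  have h1 : f = (E : (X × Y) →ₗ[F] V) ∘ₗ (LinearMap.prodMap (f.restrict hX) (f.restrict hY)) ∘ₗ
      (E.symm : V →ₗ[F] (X × Y)) := by
    ext v
    obtain ⟨⟨a, b⟩, rfl⟩ := E.surjective v
    simp only [LinearMap.comp_apply, LinearEquiv.coe_coe, LinearEquiv.symm_apply_apply,
      LinearMap.prodMap_apply]
    simp only [E, Submodule.coe_prodEquivOfIsCompl', map_add, LinearMap.restrict_coe_apply]
  have h2 := congrArg LinearMap.det h1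
  rw [LinearMap.det_conj, LinearMap.det_prodMap] at h2
  exact h2

end res

/-- Multiplicative order of `q` modulo a primitive divisor. -/
theorem dvd_of_primitive {q n r : ℕ} (hq : 1 < q) (hn : 0 < n) (hr : r.Prime) (hrd : r ∣ q ^ n - 1)
    (hrm : ∀ k : ℕ, 0 < k → k < n → ¬ r ∣ q ^ k - 1) (k : ℕ) (hk : 0 < k) (hrk : r ∣ q ^ k - 1) :
    n ∣ k := by
  haveI : Fact r.Prime := ⟨hr⟩
  have key : ∀ k : ℕ, r ∣ q ^ k - 1 ↔ (q : ZMod r) ^ k = 1 := by
    intro k
    have h1 : 1 ≤ q ^ k := Nat.one_le_pow _ _ (by omega)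
    rw [← ZMod.natCast_eq_zero_iff, Nat.cast_sub h1]
    push_cast
    exact sub_eq_zero
  have h1 := (key n).1 hrd
  have h2 := (key k).1 hrk
  have h3 : orderOf (q : ZMod r) ∣ n := orderOf_dvd_of_pow_eq_one h1
  have h4 : orderOf (q : ZMod r) ∣ k := orderOf_dvd_of_pow_eq_one h2
  have h5 : 0 < orderOf (q : ZMod r) := Nat.pos_of_dvd_of_pos h3 hn
  have h6 : orderOf (q : ZMod r) = n := by
    by_contra hne
    have h7 : orderOf (q : ZMod r) < n := lt_of_le_of_ne (Nat.le_of_dvd hn h3) hne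
    apply hrm _ h5 h7
    rw [key]
    exact pow_orderOf_eq_one _
  rwa [h6] at h4

variable {F V : Type*} [Field F] [Fintype F] [AddCommGroup V] [Module F V] [FiniteDimensional F V]

/-- The main theorem on the orthogonal side. -/
theorem no_element (p : ℕ) [hp : Fact p.Prime] [CharP F p] {q m : ℕ} (hq : Fintype.card F = q)
    (hodd : Odd q) (hm : 2 ≤ m) (Q : QuadraticForm F V) (hQ : (B Q).Nondegenerate)
    (hV : finrank F V = 2 * m + 3) (g : ↥(O Q)) (hg : g ∈ commutator ↥(O Q)) :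
    orderOf (g : V ≃ₗ[F] V) ≠ p * (q ^ m + 1) := by
  classical
  intro hord
  haveI : Finite V := Module.finite_of_finite F
  letI : Fintype V := Fintype.ofFinite V
  set g₀ : V ≃ₗ[F] V := (g : V ≃ₗ[F] V) with hg₀
  have hiso : ∀ x y, B Q (g₀ x) (g₀ y) = B Q x y := fun x y => B_of_mem_O g.2 x y
  obtain ⟨f, -, hqf⟩ := FiniteField.card F p
  rw [hq] at hqf
  have hq1 : 1 < q := by rw [← hq]; exact Fintype.one_lt_card
  have hp2 : p ≠ 2 := by
    rintro rfl
    rw [hqf] at hodd
    have : Even (2 ^ (f : ℕ)) := (even_two).pow_of_ne_zero f.ne_zero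
    exact (Nat.not_even_iff_odd.2 hodd) this
  have hp3 : 3 ≤ p := by
    have := hp.out.two_le
    omega
  have h20 : (2 : F) ≠ 0 := by
    intro h
    have h1 : ((2 : ℕ) : F) = 0 := by exact_mod_cast h
    have h2 := (CharP.cast_eq_zero_iff F p 2).1 h1
    have := Nat.le_of_dvd (by norm_num) h2
    omega
  set N := q ^ m + 1 with hN
  have hpq : p ∣ q := by
    rw [hqf]
    exact dvd_pow_self _ f.ne_zero
  have hpN : ¬ p ∣ N := by
    intro h
    have h1 : p ∣ q ^ m := dvd_pow hpq (by omega)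
    have h2 : p ∣ 1 := (Nat.dvd_add_right h1).1 h
    exact hp.out.one_lt.ne' (Nat.dvd_one.1 h2)
  -- Zsigmondy
  obtain ⟨r, hr, hrd, hrm⟩ := Cfsg.Agent.Lib.Zsig.zsigmondy q (2 * m) hq1 (by omega)
    (by
      rintro ⟨h, -⟩
      rw [h] at hodd
      exact (by decide : ¬ Odd 2) hodd)
    (by
      rintro ⟨h, -⟩
      omega)
  haveI : Fact r.Prime := ⟨hr⟩
  have hrord : ∀ k, 0 < k → r ∣ q ^ k - 1 → 2 * m ∣ k :=
    dvd_of_primitive hq1 (by omega) hr hrd hrm
  have hrQ : r ∣ N := by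
    have h1 : q ^ (2 * m) - 1 = (q ^ m - 1) * (q ^ m + 1) := by
      have h2 : 1 ≤ q ^ m := Nat.one_le_pow _ _ (by omega)
      obtain ⟨a, ha⟩ : ∃ a, q ^ m = a + 1 := ⟨q ^ m - 1, by omega⟩
      rw [mul_comm 2 m, pow_mul, ha]
      simp only [Nat.add_sub_cancel]
      have : (a + 1) ^ 2 = a * (a + 1 + 1) + 1 := by ring
      omega
    rw [h1] at hrd
    rcases (Nat.Prime.dvd_mul hr).1 hrd with h | h
    · exact absurd h (hrm m (by omega) (by omega))
    · exact h
  have hrp : r ≠ p := by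
    rintro rfl
    exact hpN hrQ
  have hrF : (r : F) ≠ 0 := by
    intro h
    have h1 := (CharP.cast_eq_zero_iff F p r).1 h
    exact hrp ((Nat.prime_dvd_prime_iff_eq hp.out hr).1 h1).symm
  have hNpos : 0 < N := by omega
  have hpos : 0 < orderOf g₀ := by
    rw [hord]
    exact Nat.mul_pos hp.out.pos hNpos
  have hrdvd : r ∣ orderOf g₀ := by
    rw [hord]
    exact hrQ.mul_left p
  set t : V ≃ₗ[F] V := g₀ ^ (orderOf g₀ / r) with ht
  have htord : orderOf t = r := orderOf_pow_orderOf_div hpos.ne' hrdvd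
  have htr : t ^ r = 1 := by
    rw [← htord]
    exact pow_orderOf_eq_one t
  have ht1 : t ≠ 1 := by
    intro h
    rw [h, orderOf_one] at htord
    exact hr.one_lt.ne htord
  have htiso : ∀ (k : ℕ) (x y : V), B Q ((t ^ k) x) ((t ^ k) y) = B Q x y := by
    have h1 : ∀ (k : ℕ) (x y : V), B Q ((g₀ ^ k) x) ((g₀ ^ k) y) = B Q x y := by
      intro k
      induction k with
      | zero => intro x y; simp
      | succ k ih =>
        intro x y
        rw [pow_succ]
        show B Q ((g₀ ^ k) (g₀ x)) ((g₀ ^ k) (g₀ y)) = B Q x y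
        rw [ih, hiso]
    intro k x y
    rw [ht, ← pow_mul]
    exact h1 _ x y
  set T' : Module.End F V := toEnd t with hT'
  have hT'app : ∀ x, T' x = t x := fun _ => rfl
  have hT'pow : ∀ (k : ℕ) (x : V), (T' ^ k) x = (t ^ k) x := by
    intro k x
    rw [hT', ← map_pow]
    rfl
  have hT'r : T' ^ r = 1 := by
    rw [hT', ← map_pow, htr, map_one]
  set S : Module.End F V := ∑ i ∈ Finset.range r, T' ^ i with hS
  set e : Module.End F V := (r : F)⁻¹ • S with he
  have hTS : T' * S = S := by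
    have h1 : T' * S = ∑ i ∈ Finset.range r, T' ^ (i + 1) := by
      rw [hS, Finset.mul_sum]
      exact Finset.sum_congr rfl (fun i _ => (pow_succ' T' i).symm)
    have h2 := Finset.sum_range_succ (fun i => T' ^ i) r
    have h3 := Finset.sum_range_succ' (fun i => T' ^ i) r
    rw [h2] at h3
    rw [h1, hS]
    rw [hT'r, pow_zero] at h3
    exact (add_right_cancel h3).symm
  have hTe : T' * e = e := by
    rw [he, mul_smul_comm, hTS]
  have hTpe : ∀ k : ℕ, T' ^ k * e = e := by
    intro k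
    induction k with
    | zero => simp
    | succ k ih => rw [pow_succ, mul_assoc, hTe, ih]
  have hee : e * e = e := by
    have h1 : S * e = (r : F) • e := by
      rw [hS, Finset.sum_mul]
      simp only [hTpe, Finset.sum_const, Finset.card_range]
      rw [← Nat.cast_smul_eq_nsmul F]
    rw [he, smul_mul_assoc, ← he, h1, smul_smul, inv_mul_cancel₀ hrF, one_smul]
  have hefix : ∀ x, t x = x → e x = x := by
    intro x hx
    have h1 : ∀ k : ℕ, (T' ^ k) x = x := by
      intro k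
      induction k with
      | zero => simp
      | succ k ih =>
        rw [pow_succ, Module.End.mul_apply]
        have : T' x = x := hx
        rw [this, ih]
    show ((r : F)⁻¹ • S) x = x
    rw [LinearMap.smul_apply, hS, LinearMap.sum_apply]
    simp only [h1, Finset.sum_const, Finset.card_range]
    rw [← Nat.cast_smul_eq_nsmul F, smul_smul, inv_mul_cancel₀ hrF, one_smul]
  have hcomme : ∀ h : V ≃ₗ[F] V, Commute h t → ∀ x, e (h x) = h (e x) := by
    intro h hh x
    have h0 : Commute (toEnd h) T' := by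
      show toEnd h * toEnd t = toEnd t * toEnd h
      rw [← map_mul, ← map_mul, hh.eq]
    have h1 : Commute (toEnd h) S := by
      rw [hS]
      exact Commute.sum_right _ _ _ (fun i _ => h0.pow_right i)
    have h2 : Commute (toEnd h) e := by
      rw [he]
      exact h1.smul_right _
    exact (LinearMap.congr_fun h2.eq x).symm
  set V₁ : Submodule F V := LinearMap.ker e with hV₁
  set W : Submodule F V := LinearMap.ker (T' - 1) with hW
  have hmemV₁ : ∀ x, x ∈ V₁ ↔ e x = 0 := fun x => LinearMap.mem_ker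
  have hmemW : ∀ x, x ∈ W ↔ t x = x := by
    intro x
    rw [hW, LinearMap.mem_ker]
    exact sub_eq_zero
  have hdisj : ∀ x, x ∈ V₁ → x ∈ W → x = 0 := by
    intro x h1 h2
    have h3 := hefix x ((hmemW x).1 h2)
    rw [← h3]
    exact (hmemV₁ x).1 h1
  have heW : ∀ x, e x ∈ W := by
    intro x
    rw [hmemW]
    exact LinearMap.congr_fun hTe x
  have heV : ∀ x, x - e x ∈ V₁ := by
    intro x
    rw [hmemV₁, map_sub, sub_eq_zero]
    exact (LinearMap.congr_fun hee x).symm
  have hc : IsCompl V₁ W := by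
    constructor
    · rw [Submodule.disjoint_def]
      exact hdisj
    · rw [codisjoint_iff, eq_top_iff]
      intro x _
      have : x = (x - e x) + e x := by abel
      rw [this]
      exact Submodule.add_mem_sup (heV x) (heW x)
  have horth : ∀ x ∈ V₁, ∀ y ∈ W, B Q x y = 0 := by
    intro x hx y hy
    have hy' : ∀ k : ℕ, (t ^ k) y = y := by
      intro k
      induction k with
      | zero => simp
      | succ k ih =>
        rw [pow_succ]
        show (t ^ k) (t y) = y
        rw [(hmemW y).1 hy, ih]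
    have h1 : B Q (S x) y = (r : F) * B Q x y := by
      rw [hS, LinearMap.sum_apply, map_sum, LinearMap.sum_apply]
      have : ∀ i ∈ Finset.range r, B Q ((T' ^ i) x) y = B Q x y := by
        intro i _
        rw [hT'pow]
        conv_lhs => rw [← hy' i]
        exact htiso i x y
      rw [Finset.sum_congr rfl this]
      simp
    have h2 : e x = (r : F)⁻¹ • S x := rfl
    have h3 : B Q (e x) y = B Q x y := by
      rw [h2, map_smul, LinearMap.smul_apply, h1, smul_eq_mul, ← mul_assoc, inv_mul_cancel₀ hrF, one_mul]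
    rw [← h3, (hmemV₁ x).1 hx]
    simp
  have hinvar : ∀ h : V ≃ₗ[F] V, Commute h t → (∀ x ∈ V₁, h x ∈ V₁) ∧ (∀ x ∈ W, h x ∈ W) := by
    intro h hh
    constructor
    · intro x hx
      rw [hmemV₁] at hx ⊢
      rw [hcomme h hh, hx, map_zero]
    · intro x hx
      rw [hmemW] at hx ⊢
      have h1 : (t * h) x = (h * t) x := by rw [hh.eq]
      have h2 : t (h x) = h (t x) := h1
      rw [h2, hx]
  have hcg : Commute g₀ t := (Commute.refl g₀).pow_right _
  have hcg' : Commute g₀⁻¹ t := hcg.inv_left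
  have hct : Commute t t := Commute.refl t
  have hct' : Commute t⁻¹ t := hct.inv_left
  set Cc : V₁ ≃ₗ[F] V₁ := res g₀ V₁ (hinvar g₀ hcg).1 (hinvar g₀⁻¹ hcg').1 with hCc
  set w : W ≃ₗ[F] W := res g₀ W (hinvar g₀ hcg).2 (hinvar g₀⁻¹ hcg').2 with hw
  set Tt : V₁ ≃ₗ[F] V₁ := res t V₁ (hinvar t hct).1 (hinvar t⁻¹ hct').1 with hTt
  let β₁ : V₁ →ₗ[F] V₁ →ₗ[F] F := (B Q).domRestrict₁₂ V₁ V₁
  let β₂ : W →ₗ[F] W →ₗ[F] F := (B Q).domRestrict₁₂ W W
  have hβ₁ : ∀ x y : V₁, β₁ x y = B Q x y := fun _ _ => rfl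
  have hβ₂ : ∀ x y : W, β₂ x y = B Q x y := fun _ _ => rfl
  have hβ₁nd : ∀ x : V₁, (∀ y, β₁ x y = 0) → x = 0 := by
    intro x hx
    apply Subtype.ext
    apply hQ.1
    intro y
    have h1 : y = (y - e y) + e y := by abel
    rw [h1, map_add, horth x x.2 _ (heW y), add_zero]
    exact hx ⟨_, heV y⟩
  have hβ₂nd : ∀ x : W, (∀ y, β₂ x y = 0) → x = 0 := by
    intro x hx
    apply Subtype.ext
    apply hQ.1
    intro y
    have h1 : y = (y - e y) + e y := by abel
    rw [h1, map_add, B_comm Q _ (y - e y), horth _ (heV y) x x.2, zero_add]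
    exact hx ⟨_, heW y⟩
  -- dimensions
  have hfree : ∀ X : Submodule F V, X ≤ V₁ → (∀ x ∈ X, t x ∈ X) → finrank F X = 0 ∨ 2 * m ∣ finrank F X := by
    intro X hX hXt
    by_cases h0 : finrank F X = 0
    · exact Or.inl h0
    right
    let f : Function.End X := fun x => ⟨t x, hXt x x.2⟩
    have hfk : ∀ (k : ℕ) (x : X), (((f ^ k) x : X) : V) = (t ^ k) x := by
      intro k
      induction k with
      | zero => intro x; rfl
      | succ k ih =>
        intro x
        rw [pow_succ, pow_succ]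
        show (((f ^ k) (f x) : X) : V) = (t ^ k) (t x)
        rw [ih]
    have hf : f ^ r ^ 1 = 1 := by
      rw [pow_one]
      funext x
      apply Subtype.ext
      rw [hfk, htr]
      rfl
    have hmod := Equiv.Perm.card_fixedPoints_modEq hf
    have hcard1 : Fintype.card (Function.fixedPoints f) = 1 := by
      rw [Fintype.card_eq_one_iff]
      refine ⟨⟨0, ?_⟩, ?_⟩
      · apply Subtype.ext
        show t 0 = 0
        exact map_zero t
      · rintro ⟨y, hy⟩
        apply Subtype.ext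
        apply Subtype.ext
        have h1 : t (y : V) = y := congrArg Subtype.val hy
        exact hdisj y (hX y.2) ((hmemW y).2 h1)
    have hcardX : Fintype.card X = q ^ finrank F X := by
      rw [← hq]
      exact Module.card_eq_pow_finrank
    rw [hcard1, hcardX] at hmod
    have h2 : r ∣ q ^ finrank F X - 1 :=
      (Nat.modEq_iff_dvd' (Nat.one_le_pow _ _ (by omega))).1 hmod.symm
    exact hrord _ (Nat.pos_of_ne_zero h0) h2
  have hV₁ne : finrank F V₁ ≠ 0 := by
    intro h0
    have h1 : V₁ = ⊥ := Submodule.finrank_eq_zero.1 h0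
    apply ht1
    ext x
    have h2 : x - e x = 0 := by
      have := heV x
      rw [h1, Submodule.mem_bot] at this
      exact this
    have h3 : x = e x := sub_eq_zero.1 h2
    have h4 := (hmemW _).1 (heW x)
    rw [← h3] at h4
    exact h4
  have hadd := Submodule.finrank_add_eq_of_isCompl hc
  rw [hV] at hadd
  have hd₁ : finrank F V₁ = 2 * m := by
    rcases hfree V₁ le_rfl (hinvar t hct).1 with h | h
    · exact absurd h hV₁ne
    · obtain ⟨a, ha⟩ := h
      have ha0 : a ≠ 0 := by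
        rintro rfl
        apply hV₁ne
        rw [ha, mul_zero]
      have ha1 : a = 1 := by
        by_contra hne
        have ha2 : 2 ≤ a := by omega
        have h5 : 2 * m * 2 ≤ 2 * m * a := Nat.mul_le_mul_left _ ha2
        omega
      rw [ha, ha1, mul_one]
  have hW3 : finrank F W = 3 := by omega
  have hinv : ∀ X : Submodule F V₁, (∀ x ∈ X, Tt x ∈ X) → X = ⊥ ∨ X = ⊤ := by
    intro X hXT
    have hX' := hfree (X.map V₁.subtype) (Submodule.map_subtype_le _ _) (by
      rintro _ ⟨y, hy, rfl⟩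
      exact ⟨Tt y, hXT y hy, rfl⟩)
    have hfr : finrank F (X.map V₁.subtype) = finrank F X :=
      LinearEquiv.finrank_eq (Submodule.equivMapOfInjective _ V₁.injective_subtype X).symm
    rw [hfr] at hX'
    by_cases h0 : finrank F X = 0
    · left
      exact Submodule.finrank_eq_zero.1 h0
    · right
      rcases hX' with h | h
      · exact absurd h h0
      · apply Submodule.eq_top_of_finrank_eq
        have h1 := Submodule.finrank_le X
        have h2 := Nat.le_of_dvd (Nat.pos_of_ne_zero h0) h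
        omega
  have hTiso : ∀ x y, β₁ (Tt x) (Tt y) = β₁ x y := by
    intro x y
    have := htiso 1 x y
    rw [pow_one] at this
    exact this
  have hCiso : ∀ x y, β₁ (Cc x) (Cc y) = β₁ x y := fun x y => hiso x y
  have hwiso : ∀ x y, β₂ (w x) (w y) = β₂ x y := fun x y => hiso x y
  have hTr : Tt ^ r = 1 := by
    ext x
    rw [hTt, res_pow, htr]
    rfl
  have hT1 : Tt ≠ 1 := by
    intro h
    apply hV₁ne
    rw [Submodule.finrank_eq_zero, eq_bot_iff]
    intro x hx
    have h1 : Tt ⟨x, hx⟩ = ⟨x, hx⟩ := by rw [h]; rfl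
    have h2 : t x = x := congrArg Subtype.val h1
    rw [Submodule.mem_bot]
    exact hdisj x hx ((hmemW x).2 h2)
  have hCT : Cc * Tt = Tt * Cc := by
    ext x
    show g₀ (t x) = t (g₀ x)
    exact LinearEquiv.congr_fun hcg.eq (x : V)
  obtain ⟨hCN, hdetC, hCnon⟩ := field_part p hq hodd (by omega) hd₁ β₁ (fun x y => B_comm Q _ _) hβ₁nd
    Tt hTiso hTr hT1 hr hrQ hrord hinv Cc hCiso hCT
  -- the determinant
  have hdetg : LinearMap.det (g₀ : V →ₗ[F] V) = 1 := by
    let ψ : ↥(O Q) →* Fˣ := (LinearEquiv.det (R := F) (M := V)).comp (O Q).subtype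
    have h1 : ψ g = 1 := Abelianization.commutator_subset_ker ψ hg
    have h2 : ((LinearEquiv.det g₀ : Fˣ) : F) = 1 := by
      have : LinearEquiv.det g₀ = 1 := h1
      rw [this]
      rfl
    rw [LinearEquiv.coe_det] at h2
    exact h2
  have hsplit1 := det_of_isCompl hc (g₀ : V →ₗ[F] V) (hinvar g₀ hcg).1 (hinvar g₀ hcg).2
  have hdetw : LinearMap.det (w : W →ₗ[F] W) = 1 := by
    have h1 : LinearMap.det (Cc : V₁ →ₗ[F] V₁) * LinearMap.det (w : W →ₗ[F] W) = 1 := by
      rw [← hdetg, hsplit1]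
      rfl
    rw [hdetC, one_mul] at h1
    exact h1
  -- orders
  have hCk : ∀ k, Cc ^ k = 1 → ∀ x ∈ V₁, (g₀ ^ k) x = x := by
    intro k hk x hx
    have h1 := res_pow g₀ V₁ (hinvar g₀ hcg).1 (hinvar g₀⁻¹ hcg').1 k ⟨x, hx⟩
    rw [← hCc, hk] at h1
    exact h1.symm
  have hwk : ∀ k, w ^ k = 1 → ∀ x ∈ W, (g₀ ^ k) x = x := by
    intro k hk x hx
    have h1 := res_pow g₀ W (hinvar g₀ hcg).2 (hinvar g₀⁻¹ hcg').2 k ⟨x, hx⟩
    rw [← hw, hk] at h1
    exact h1.symm
  have hgk : ∀ k, Cc ^ k = 1 → w ^ k = 1 → g₀ ^ k = 1 := by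
    intro k h1 h2
    ext x
    have h3 : x = (x - e x) + e x := by abel
    rw [h3, map_add, hCk k h1 _ (heV x), hwk k h2 _ (heW x)]
    rfl
  have hkw : ∀ k, g₀ ^ k = 1 → w ^ k = 1 := by
    intro k hk
    ext x
    rw [hw, res_pow, hk]
    rfl
  have hpow : g₀ ^ orderOf g₀ = 1 := pow_orderOf_eq_one g₀
  have hposw : 0 < orderOf w := by
    apply IsOfFinOrder.orderOf_pos
    rw [isOfFinOrder_iff_pow_eq_one]
    exact ⟨_, hpos, hkw _ hpow⟩
  have hdvdw : p ∣ orderOf w := by
    have h1 : g₀ ^ (N * orderOf w) = 1 := by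
      apply hgk
      · rw [pow_mul, hCN, one_pow]
      · rw [mul_comm, pow_mul, pow_orderOf_eq_one, one_pow]
    have h2 := orderOf_dvd_of_pow_eq_one h1
    rw [hord, mul_comm p N] at h2
    exact Nat.dvd_of_mul_dvd_mul_left hNpos h2
  obtain ⟨hwp, hdetw8⟩ := w3 (p := p) hp3 hW3 β₂ (fun x y => B_comm Q _ _) hβ₂nd w hwiso hdetw hposw hdvdw
  have hordC : orderOf Cc = N := by
    have h1 : g₀ ^ (p * orderOf Cc) = 1 := by
      apply hgk
      · rw [mul_comm, pow_mul, pow_orderOf_eq_one, one_pow]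
      · rw [pow_mul, hwp, one_pow]
    have h2 := orderOf_dvd_of_pow_eq_one h1
    rw [hord] at h2
    have h3 : N ∣ orderOf Cc := Nat.dvd_of_mul_dvd_mul_left hp.out.pos h2
    exact Nat.dvd_antisymm (orderOf_dvd_of_pow_eq_one hCN) h3
  obtain ⟨hnons, hne⟩ := hCnon hordC
  -- Zassenhaus
  have hOG : O Q ≤ G Q := O_le_G hQ (Or.inl ⟨-1, neg_ne_zero.2 one_ne_zero, by
    intro h
    apply h20
    have h3 : (1 : F) + 1 = 0 := by
      nth_rewrite 1 [← h]
      ring
    rw [← h3]
    ring⟩)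
  obtain ⟨L, hL, hgL, hev, hsq⟩ := (mem_commutator_iff hQ hOG g).1 hg
  have hgL' : g₀ = prodR Q L := by rw [hg₀, hgL]; rfl
  have hsplit2 := det_of_isCompl hc ((g₀ : V →ₗ[F] V) + LinearMap.id)
    (fun x hx => V₁.add_mem ((hinvar g₀ hcg).1 x hx) hx)
    (fun x hx => W.add_mem ((hinvar g₀ hcg).2 x hx) hx)
  have hsplit3 : LinearMap.det ((g₀ : V →ₗ[F] V) + LinearMap.id) =
      LinearMap.det ((Cc : V₁ →ₗ[F] V₁) + LinearMap.id) * 8 := by
    rw [hsplit2, ← hdetw8]
    rfl
  have h80 : (8 : F) ≠ 0 := by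
    have : (8 : F) = 2 ^ 3 := by norm_num
    rw [this]
    exact pow_ne_zero _ h20
  have hd : LinearMap.det ((g₀ : V →ₗ[F] V) + LinearMap.id) ≠ 0 := by
    rw [hsplit3]
    exact mul_ne_zero hne h80
  have hfinal := isSquare_two_pow_mul_det hQ h20 hOG g₀ L hL hgL' hev hsq hd
  rw [hsplit3, hV] at hfinal
  obtain ⟨s, hs⟩ := hfinal
  apply hnons
  set D := LinearMap.det ((Cc : V₁ →ₗ[F] V₁) + LinearMap.id) with hD
  have h2m : (2 : F) ^ (m + 3) ≠ 0 := pow_ne_zero _ h20
  refine ⟨s / (2 : F) ^ (m + 3), ?_⟩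
  have h3 : (2 : F) ^ (2 * m + 3) * (D * 8) = (2 : F) ^ (m + 3) * (2 : F) ^ (m + 3) * D := by
    have : (8 : F) = 2 ^ 3 := by norm_num
    rw [this]
    ring
  rw [h3] at hs
  field_simp
  linear_combination hs

end Cfsg.Agent.Lib.SpecBC
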